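import Mathlib
import Cfsg.Agent.Lib.Helper58.UPair.Defs

/-!
# UPAIR (S5984), package [NONSC]
-/

set_option autoImplicit false
open scoped MatrixGroups Matrix

namespace Cfsg.Agent.Lib.Helper24.UPair

open Cfsg.Agent.Lib.Helper58.UPair

universe u

/-- [NONSC] -/
theorem pkgNonScalar : PkgNonScalar.{u} := by
  intro F _ n x c hpos hlt z hz
  have hsh : sh x c = (z - c) • (1 : Matrix (Fin n) (Fin n) F) := by
    show (x : Matrix (Fin n) (Fin n) F) - c • (1 : Matrix (Fin n) (Fin n) F) = _
    rw [hz, sub_smul]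
  by_cases hzc : z - c = 0
  · rw [hsh, hzc, zero_smul, Matrix.rank_zero] at hpos
    exact lt_irrefl _ hpos
  · have hunit : IsUnit ((z - c) • (1 : Matrix (Fin n) (Fin n) F)) := by
      rw [Matrix.isUnit_iff_isUnit_det, Matrix.det_smul, Matrix.det_one, mul_one]
      exact (isUnit_iff_ne_zero.mpr hzc).pow _
    rw [hsh, Matrix.rank_of_isUnit _ hunit, Fintype.card_fin] at hlt
    exact lt_irrefl _ hlt

end Cfsg.Agent.Lib.Helper24.UPair
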