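import Mathlib
import Cfsg.Agent.Lib.Helper58.UPair.Defs

/-!
# UPAIR (S5984), package [SWAPRANK]
-/

set_option autoImplicit false
open scoped MatrixGroups Matrix

namespace Cfsg.Agent.Lib.Helper24.UPair

open Cfsg.Agent.Lib.Helper58.UPair

universe u

/-- [SWAPRANK] -/
theorem pkgSwapRank : PkgSwapRank.{u} := by
  intro F _ n m D x c hD hmap
  have hdisj : D 0 ⊓ D 1 = ⊥ := by
    have h := hD.indep.pairwiseDisjoint (show (0 : Fin 2) ≠ 1 by decide)
    exact disjoint_iff.mp h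
  have hxinj : ∀ v : Fin n → F, (x : Matrix (Fin n) (Fin n) F) *ᵥ v = 0 → v = 0 := by
    intro v hv
    have h1 : ((x⁻¹ : GL (Fin n) F) : Matrix (Fin n) (Fin n) F) *ᵥ
        ((x : Matrix (Fin n) (Fin n) F) *ᵥ v) = v := by
      rw [Matrix.mulVec_mulVec, ← Units.val_mul, inv_mul_cancel, Units.val_one, Matrix.one_mulVec]
    rw [hv, Matrix.mulVec_zero] at h1
    exact h1.symm
  -- the restriction of `x - c` to `D 0`
  let f : ↥(D 0) →ₗ[F] (Fin n → F) := (Matrix.toLin' (sh x c)).domRestrict (D 0)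
  have hf : ∀ v : ↥(D 0), f v = sh x c *ᵥ (v : Fin n → F) := fun v => by
    show Matrix.toLin' (sh x c) (v : Fin n → F) = _
    rw [Matrix.toLin'_apply]
  have hfinj : Function.Injective f := by
    rw [← LinearMap.ker_eq_bot, LinearMap.ker_eq_bot']
    intro v hv
    rw [hf] at hv
    have h1 : (x : Matrix (Fin n) (Fin n) F) *ᵥ (v : Fin n → F) = c • (v : Fin n → F) := by
      have h2 : sh x c *ᵥ (v : Fin n → F)
          = (x : Matrix (Fin n) (Fin n) F) *ᵥ (v : Fin n → F) - c • (v : Fin n → F) := by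
        show ((x : Matrix (Fin n) (Fin n) F) - c • (1 : Matrix (Fin n) (Fin n) F)) *ᵥ _ = _
        rw [Matrix.sub_mulVec, Matrix.smul_mulVec, Matrix.one_mulVec]
      rw [h2] at hv
      exact sub_eq_zero.mp hv
    have h3 : (x : Matrix (Fin n) (Fin n) F) *ᵥ (v : Fin n → F) ∈ D 1 := by
      rw [← hmap]
      refine ⟨v, v.2, ?_⟩
      rw [Matrix.toLin'_apply]
    have h4 : (x : Matrix (Fin n) (Fin n) F) *ᵥ (v : Fin n → F) ∈ D 0 := by
      rw [h1]
      exact (D 0).smul_mem c v.2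
    have h5 : (x : Matrix (Fin n) (Fin n) F) *ᵥ (v : Fin n → F) ∈ D 0 ⊓ D 1 :=
      Submodule.mem_inf.mpr ⟨h4, h3⟩
    rw [hdisj, Submodule.mem_bot] at h5
    exact Subtype.ext (hxinj _ h5)
  have h6 : Module.finrank F ↥(LinearMap.range f) = m := by
    rw [LinearMap.finrank_range_of_inj hfinj, hD.finrank_eq]
  have h7 : LinearMap.range f ≤ LinearMap.range (sh x c).mulVecLin := by
    rintro _ ⟨v, rfl⟩
    exact ⟨(v : Fin n → F), by rw [hf]; rfl⟩
  rw [← h6]
  exact Submodule.finrank_mono h7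

end Cfsg.Agent.Lib.Helper24.UPair
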